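import Mathlib
import Cfsg.Prelude.Def_LieExceptional
import Cfsg.Prelude.Def_OddOrderLocal
import Cfsg.Agent.Lib.H30.CN2
import Cfsg.Agent.Lib.H27.Sig
import Cfsg.Agent.Lib.H26.TransferPow
import Cfsg.Agent.Lib.H29.PGrp
import Cfsg.Agent.Lib.H28.RelHall
import Cfsg.Agent.Lib.H30.Nil
import Cfsg.Agent.Lib.H70.Real

set_option autoImplicit false

/-! Maximal nilpotent subgroups of CN-groups (S1477). -/

namespace H30.CN

open Cfsg Subgroup H28.RelSyl

universe u

section
variable {G : Type u} [Group G] [Finite G]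

/-- `C_G(z) = H` for a nontrivial central element of a maximal nilpotent subgroup. -/
theorem cent_eq_of_max (hCN : IsCNGroup G) {H : Subgroup G}
    (hmax : ∀ L : Subgroup G, Group.IsNilpotent L → H ≤ L → L = H) {z : G}
    (hzc : z ∈ centralizer (H : Set G)) (h1 : z ≠ 1) : centralizer ({z} : Set G) = H := by
  refine hmax _ (hCN z h1) ?_
  intro h hh
  rw [mem_centralizer_singleton_iff]
  exact mem_centralizer_iff.1 hzc h hh

/-- in a nilpotent group an element of a Sylow `p`-subgroup which commutes with the Sylow `p`-subgroup is central -/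
theorem central_of_nilpotent {H P : Subgroup G} (hH : Group.IsNilpotent H) {p : ℕ} [hp : Fact p.Prime]
    (hP : IsSyl p P H) {z : G} (hz : z ∈ P) (hzP : z ∈ centralizer (P : Set G)) : z ∈ centralizer (H : Set G) := by
  rw [mem_centralizer_iff]
  intro h hh
  obtain ⟨u, v, he, ⟨k, hk⟩, hv⟩ := H26.TransferPow.exists_pPart p h
  have hPn : P ≤ H := hP.le
  have h1 : h ^ u ∈ P := by
    have hq : IsPGroup p (zpowers (h ^ u)) := IsPGroup.iff_card.2 ⟨k, by rw [Nat.card_zpowers, hk]⟩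
    obtain ⟨x, hx, hle⟩ := hP.exists_conj_ge hq (zpowers_le.2 (pow_mem hh u))
    have hn : (hP.toSylow : Subgroup H).Normal := H73.Nilp.sylow_normal hP.toSylow
    have h2 : H28.Cj.cj x P = P := by
      rw [hP.coe_toSylow] at hn
      rw [← H28.Cj.mem_normalizer_iff_cj]
      exact (Subgroup.normal_subgroupOf_iff_le_normalizer hPn).1 hn hx
    rw [h2] at hle
    exact hle (mem_zpowers _)
  have h2 : h ^ u * z = z * h ^ u := mem_centralizer_iff.1 hzP _ h1
  have h3 : h ^ v ∈ centralizer (P : Set G) :=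
    H73.Nilp.mem_centralizer_of_le hH hP.isPGroup hPn (pow_mem hh v) hv
  have h4 : z * h ^ v = h ^ v * z := mem_centralizer_iff.1 h3 z hz
  have h5 : Commute (h ^ u) z := h2
  have h6 : Commute (h ^ v) z := h4.symm
  have h7 : Commute (h ^ u * h ^ v) z := h5.mul_left h6
  rw [← he] at h7
  exact h7

/-- S1477, part 1 -/
theorem max_nilp_hall (hCN : IsCNGroup G) {H : Subgroup G} (hH : Group.IsNilpotent H)
    (hmax : ∀ L : Subgroup G, Group.IsNilpotent L → H ≤ L → L = H) : (Nat.card H).Coprime H.index := by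
  apply Nat.Coprime.symm
  rw [Nat.coprime_comm]
  refine Nat.coprime_of_dvd fun p hp hd hd2 => ?_
  have := Fact.mk hp
  obtain ⟨P, hP⟩ := exists_isSyl p H
  obtain ⟨S, hS, hPS⟩ := exists_isSyl_ge hP.isPGroup (le_top : P ≤ ⊤)
  have hP1 : P ≠ ⊥ := by
    rintro rfl
    have h1 := hP.not_dvd
    rw [relIndex_bot_left] at h1
    exact h1 hd
  have hSP : S ≤ P := by
    by_contra hne
    have h1 := H27.Sig.exists_lt_normalizer hS.isPGroup hPS hne
    apply h1
    have hNp : IsPGroup p (S ⊓ normalizer (P : Set G) : Subgroup G) := hS.isPGroup.to_le inf_le_left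
    have h2 := H29.PGrp.inf_center_ne_bot hNp (le_inf hPS Subgroup.le_normalizer) inf_le_right hP1
    obtain ⟨z, hz, hz1⟩ := (Subgroup.bot_or_exists_ne_one _).resolve_left h2
    obtain ⟨hzP, hzN⟩ := Subgroup.mem_inf.1 hz
    have hzPc : z ∈ centralizer (P : Set G) :=
      centralizer_le (show (P : Set G) ⊆ _ from (le_inf hPS Subgroup.le_normalizer : P ≤ S ⊓ normalizer (P : Set G))) hzN
    have h3 := cent_eq_of_max hCN hmax (central_of_nilpotent hH hP hzP hzPc) hz1
    have h4 : S ⊓ normalizer (P : Set G) ≤ H := by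
      rw [← h3]
      intro n hn
      rw [mem_centralizer_singleton_iff]
      exact mem_centralizer_iff.1 hzN n hn
    have h5 : S ⊓ normalizer (P : Set G) = P := hP.eq_of_le hNp (le_inf hPS Subgroup.le_normalizer) h4
    exact h5.le
  have hPS' : P = S := le_antisymm hPS hSP
  subst hPS'
  have h1 := hS.not_dvd
  rw [relIndex_top_right] at h1
  apply h1
  rw [← Subgroup.relIndex_mul_index hP.le]
  exact Dvd.dvd.mul_left hd2 _

/-- an element of prime order in `H` whose centralizer meets... : `C_G(x) ≤ H` when `#H` is not a prime power. -/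
theorem cent_le_of_prime_order (hCN : IsCNGroup G) {H : Subgroup G} (hH : Group.IsNilpotent H)
    (hmax : ∀ L : Subgroup G, Group.IsNilpotent L → H ≤ L → L = H) (hpp : ¬ IsPrimePow (Nat.card H))
    {x : G} {p : ℕ} [hp : Fact p.Prime] (hx : x ∈ H) (hxo : orderOf x = p) :
    centralizer ({x} : Set G) ≤ H := by
  have hx1 : x ≠ 1 := by
    rintro rfl
    rw [orderOf_one] at hxo
    exact hp.out.one_lt.ne hxo
  have hpd : p ∣ Nat.card H := by
    rw [← hxo, ← Subgroup.orderOf_mk x hx]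
    exact orderOf_dvd_natCard _
  -- another prime divisor
  obtain ⟨q, hq, hqp, hqd⟩ : ∃ q : ℕ, q.Prime ∧ q ≠ p ∧ q ∣ Nat.card H := by
    by_contra hcon
    push Not at hcon
    apply hpp
    have h1 : ∀ q : ℕ, q.Prime → q ∣ Nat.card H → q = p := fun q hq hd => by
      by_contra hne
      exact hcon q hq hne hd
    have h2 := Nat.eq_prime_pow_of_unique_prime_dvd (n := Nat.card H) (p := p) Nat.card_pos.ne' (fun {q} hq hd => h1 q hq hd)
    rw [isPrimePow_nat_iff]
    refine ⟨p, _, hp.out, ?_, h2.symm⟩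
    by_contra h0
    have h0' : (Nat.card H).primeFactorsList.length = 0 := by omega
    rw [h0', pow_zero] at h2
    rw [h2] at hpd
    exact hp.out.one_lt.ne' (Nat.dvd_one.1 hpd)
  have := Fact.mk hq
  have hxnil := hCN x hx1
  obtain ⟨P, hP⟩ := exists_isSyl p H
  obtain ⟨Q, hQ⟩ := exists_isSyl q H
  have hne : ∀ (r : ℕ) [Fact r.Prime] (R : Subgroup G), IsSyl r R H → r ∣ Nat.card H → ∃ z ∈ R, z ≠ 1 ∧ z ∈ centralizer (H : Set G) := by
    intro r hr R hR hrd
    have hR1 : R ≠ ⊥ := by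
      rintro rfl
      have h1 := hR.not_dvd
      rw [relIndex_bot_left] at h1
      exact h1 hrd
    have h2 := H29.PGrp.inf_center_ne_bot hR.isPGroup le_rfl Subgroup.le_normalizer hR1
    obtain ⟨z, hz, hz1⟩ := (Subgroup.bot_or_exists_ne_one _).resolve_left h2
    obtain ⟨hzP, hzN⟩ := Subgroup.mem_inf.1 hz
    exact ⟨z, hzP, hz1, central_of_nilpotent hH hR hzP hzN⟩
  obtain ⟨y, hyP, hy1, hyc⟩ := hne p P hP hpd
  obtain ⟨z, hzQ, hz1, hzc⟩ := hne q Q hQ hqd
  have hyC := cent_eq_of_max hCN hmax hyc hy1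
  have hzC := cent_eq_of_max hCN hmax hzc hz1
  intro c hc
  obtain ⟨u, v, he, ⟨k, hk⟩, hv⟩ := H26.TransferPow.exists_pPart p c
  have hxy : y ∈ centralizer ({x} : Set G) := by
    rw [mem_centralizer_singleton_iff]
    exact (mem_centralizer_iff.1 hyc x hx).symm
  have hxz : z ∈ centralizer ({x} : Set G) := by
    rw [mem_centralizer_singleton_iff]
    exact (mem_centralizer_iff.1 hzc x hx).symm
  obtain ⟨j, hj⟩ := (IsPGroup.iff_orderOf.mp hP.isPGroup) ⟨y, hyP⟩
  rw [Subgroup.orderOf_mk] at hj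
  -- the p-part of c commutes with z
  have h1 : c ^ u ∈ H := by
    rw [← hzC]
    have h2 : IsPGroup p (zpowers (c ^ u)) := IsPGroup.iff_card.2 ⟨k, by rw [Nat.card_zpowers, hk]⟩
    have h3 : z ∈ centralizer ((zpowers (c ^ u) : Subgroup G) : Set G) :=
      commute_of_cn hCN hx1 h2 (zpowers_le.2 (pow_mem hc u)) hxz (coprime_orderOf_of_isPGroup hqp hQ.isPGroup hzQ)
    rw [mem_centralizer_singleton_iff]
    exact mem_centralizer_iff.1 h3 _ (mem_zpowers _)
  have h2 : c ^ v ∈ H := by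
    rw [← hyC]
    have h2 : IsPGroup p (zpowers y) := IsPGroup.iff_card.2 ⟨j, by rw [Nat.card_zpowers, hj]⟩
    have h3 : c ^ v ∈ centralizer ((zpowers y : Subgroup G) : Set G) :=
      commute_of_cn hCN hx1 h2 (zpowers_le.2 hxy) (pow_mem hc v) hv
    rw [mem_centralizer_singleton_iff]
    exact (mem_centralizer_iff.1 h3 _ (mem_zpowers _)).symm
  rw [he]
  exact mul_mem h1 h2

theorem exists_prime_order_of_ne_bot {D : Subgroup G} (hD : D ≠ ⊥) : ∃ (x : G) (p : ℕ), p.Prime ∧ x ∈ D ∧ orderOf x = p := by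
  obtain ⟨x, hx, hx1⟩ := (Subgroup.bot_or_exists_ne_one _).resolve_left hD
  obtain ⟨q, m, hq, ho⟩ := exists_prime_power hx1
  exact ⟨x ^ m, q, hq, pow_mem hx m, ho⟩

theorem isNilpotent_cj {H : Subgroup G} (hH : Group.IsNilpotent H) (g : G) : Group.IsNilpotent (H28.Cj.cj g H) :=
  Group.nilpotent_of_mulEquiv (H.equivMapOfInjective (MulAut.conj g).toMonoidHom (MulAut.conj g).injective)

theorem inf_cent_ne_bot {H : Subgroup G} (hH : Group.IsNilpotent H) (hne : H ≠ ⊥) :
    H ⊓ centralizer (H : Set G) ≠ ⊥ := by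
  intro hb
  have hnt : Nontrivial H := (Subgroup.nontrivial_iff_ne_bot H).2 hne
  have h1 : center H = ⊥ := by
    rw [eq_bot_iff]
    intro z hz
    have h2 : (z : G) ∈ H ⊓ centralizer (H : Set G) := by
      refine ⟨z.2, mem_centralizer_iff.2 ?_⟩
      intro h hh
      exact congrArg Subtype.val (mem_center_iff.1 hz ⟨h, hh⟩)
    rw [hb, mem_bot] at h2
    rw [mem_bot]
    exact Subtype.ext h2
  have h3 := H30.Nil.inf_center_ne_bot (⊤ : Subgroup H) top_ne_bot
  rw [top_inf_eq] at h3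
  exact h3 h1

/-- S1477, part 2 -/
theorem max_nilp_ti (hCN : IsCNGroup G) {H : Subgroup G} (hH : Group.IsNilpotent H)
    (hmax : ∀ L : Subgroup G, Group.IsNilpotent L → H ≤ L → L = H) (hpp : ¬ IsPrimePow (Nat.card H))
    (hcard : Nat.card H ≠ 1) (g : G) (hg : H28.Cj.cj g H ≠ H) : H ⊓ H28.Cj.cj g H = ⊥ := by
  by_contra hne
  obtain ⟨x, p, hp, hx, hxo⟩ := exists_prime_order_of_ne_bot hne
  have := Fact.mk hp
  obtain ⟨hx1, hx2⟩ := Subgroup.mem_inf.1 hx
  have hmax' : ∀ L : Subgroup G, Group.IsNilpotent L → H28.Cj.cj g H ≤ L → L = H28.Cj.cj g H := by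
    intro L hL hle
    have h1 := hmax (H28.Cj.cj g⁻¹ L) (isNilpotent_cj hL _) (by rw [← H28.Cj.cj_le_iff]; exact hle)
    rw [← h1, H28.Cj.cj_cj, mul_inv_cancel, H28.Cj.cj_one]
  have hpp' : ¬ IsPrimePow (Nat.card (H28.Cj.cj g H)) := by rwa [H28.Cj.card_cj]
  have hc2 := cent_le_of_prime_order hCN (isNilpotent_cj hH g) hmax' hpp' hx2 hxo
  have hnt : H ≠ ⊥ := by
    rintro rfl
    exact hcard (by rw [Subgroup.card_bot])
  have hZ := inf_cent_ne_bot hH hnt
  obtain ⟨z, r, hr, hz, hzo⟩ := exists_prime_order_of_ne_bot hZ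
  have := Fact.mk hr
  have hz1 : z ≠ 1 := by
    rintro rfl
    rw [orderOf_one] at hzo
    exact hr.one_lt.ne hzo
  have hzg : z ∈ H28.Cj.cj g H := hc2 (by
    rw [mem_centralizer_singleton_iff]
    exact (mem_centralizer_iff.1 hz.2 x hx1).symm)
  have h3 := cent_le_of_prime_order hCN (isNilpotent_cj hH g) hmax' hpp' hzg hzo
  rw [cent_eq_of_max hCN hmax hz.2 hz1] at h3
  exact hg (hmax _ (isNilpotent_cj hH g) h3)

/-- S1477, part 3 -/
theorem cent_le_of_ti (hCN : IsCNGroup G) {H : Subgroup G} (hH : Group.IsNilpotent H)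
    (hmax : ∀ L : Subgroup G, Group.IsNilpotent L → H ≤ L → L = H)
    (hti : ∀ g : G, H28.Cj.cj g H ≠ H → H ⊓ H28.Cj.cj g H = ⊥) {x : G} (hx : x ∈ H) (hx1 : x ≠ 1) :
    centralizer ({x} : Set G) ≤ H := by
  have hhall := max_nilp_hall hCN hH hmax
  have hN : centralizer ({x} : Set G) ≤ normalizer (H : Set G) := by
    intro c hc
    rw [H28.Cj.mem_normalizer_iff_cj]
    by_contra hne
    have h1 := hti c hne
    have h2 : x ∈ H ⊓ H28.Cj.cj c H := by
      refine ⟨hx, H28.Cj.mem_cj.2 ?_⟩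
      have h3 : c⁻¹ * x * c = x := by
        have h4 := mem_centralizer_singleton_iff.1 hc
        rw [mul_assoc, ← h4]; group
      rw [h3]; exact hx
    rw [h1, mem_bot] at h2
    exact hx1 h2
  -- a central element of `H`
  have hnt : H ≠ ⊥ := by
    rintro rfl
    exact hx1 (mem_bot.1 hx)
  have hZ := inf_cent_ne_bot hH hnt
  obtain ⟨z, p, hp, hz, hzo⟩ := exists_prime_order_of_ne_bot hZ
  have := Fact.mk hp
  have hz1 : z ≠ 1 := by
    rintro rfl
    rw [orderOf_one] at hzo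
    exact hp.one_lt.ne hzo
  have hzC := cent_eq_of_max hCN hmax hz.2 hz1
  have hzx : z ∈ centralizer ({x} : Set G) := by
    rw [mem_centralizer_singleton_iff]
    exact (mem_centralizer_iff.1 hz.2 x hx).symm
  have hpd : p ∣ Nat.card H := by
    rw [← hzo, ← Subgroup.orderOf_mk z hz.1]
    exact orderOf_dvd_natCard _
  rw [← inf_eq_right]
  apply H28.RelHall.eq_of_forall_isSyl_le inf_le_right
  intro r hr
  obtain ⟨R, hR⟩ := exists_isSyl r (centralizer ({x} : Set G))
  refine ⟨R, hR, le_inf ?_ hR.le⟩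
  by_cases hrd : r ∣ Nat.card H
  · intro t ht
    apply H70.Real.mem_of_mem_normalizer_of_coprime H (hN (hR.le ht))
    obtain ⟨k, hk⟩ := (IsPGroup.iff_orderOf.mp hR.isPGroup) ⟨t, ht⟩
    rw [Subgroup.orderOf_mk] at hk
    rw [hk]
    apply Nat.Coprime.pow_left
    exact Nat.Coprime.coprime_dvd_right (Dvd.intro _ (Subgroup.relIndex_mul_index (Subgroup.le_normalizer (H := H)))) (Nat.Coprime.coprime_dvd_left hrd hhall)
  · have hrp : r ≠ p := by
      rintro rfl
      exact hrd hpd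
    have h1 : z ∈ centralizer (R : Set G) :=
      commute_of_cn hCN hx1 hR.isPGroup hR.le hzx (by
        rw [hzo]; exact (Nat.coprime_primes hp hr.out).2 hrp.symm)
    rw [← hzC]
    intro t ht
    rw [mem_centralizer_singleton_iff]
    exact mem_centralizer_iff.1 h1 t ht

end

end H30.CN
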