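import Mathlib
import Cfsg.Prelude.Def_CaseTheorems
import Cfsg.Prelude.Def_OddOrderLocal
import Cfsg.Agent.Lib.H28.Quot
import Cfsg.Agent.Lib.H29.NilCore
import Cfsg.Agent.Lib.H29.PGrp
import Cfsg.Agent.Lib.H1.Coprime2
import Cfsg.Agent.Lib.H30.CN5

set_option autoImplicit false
set_option linter.unusedSectionVars false

/-! Bender: maximal local subgroups whose Fitting subgroup is not of prime power order (S1481). -/

namespace H30.Bend

open Cfsg Subgroup H1.Coprime H1.Coprime2 H27.GenSub H28.RelSyl H28.RelHall H28.RelCore H28.Quot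

section basics
variable {G : Type*} [Group G] [Finite G]

theorem isSyl_piCoreOf {D : Subgroup G} (hD : Group.IsNilpotent D) (p : ℕ) [hp : Fact p.Prime] :
    IsSyl p (piCoreOf {p} D) D := by
  obtain ⟨P, hP⟩ := exists_isSyl p D
  have h1 : P ≤ piCoreOf {p} D := isPGroup_le_piCoreOf_of_isNilpotent hD rfl hP.isPGroup hP.le
  have h2 : piCoreOf {p} D = P := hP.eq_of_le (piG_singleton_iff.1 (piG_piCoreOf _ _)) h1 (piCoreOf_le _ _)
  rw [h2]; exact hP

theorem le_centralizer_of_comm {A B : Subgroup G} (h : A ≤ centralizer (B : Set G)) : B ≤ centralizer (A : Set G) := by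
  intro b hb
  rw [mem_centralizer_iff]
  intro a ha
  exact (mem_centralizer_iff.1 (h ha) b hb).symm

theorem centralizer_le_normalizer (A : Subgroup G) : centralizer (A : Set G) ≤ normalizer (A : Set G) :=
  Subgroup.centralizer_le_normalizer _

end basics

section quot
variable {Γ : Type*} [Group Γ] [Finite Γ]

theorem invq_le_core {R M : Subgroup Γ} (hRn : R.Normal) (hRs : Group.IsSolvable R)
    (n : ℕ) (hn : 2 ≤ n.primeFactors.card) (Mp Zp : ℕ → Subgroup Γ)
    (hMp : ∀ p ∈ n.primeFactors, IsPGroup p (Mp p)) (hMpM : ∀ p ∈ n.primeFactors, Mp p ≤ M)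
    (hZM : ∀ p ∈ n.primeFactors, Zp p ≤ Mp p) (hZc : ∀ p ∈ n.primeFactors, M ≤ centralizer (Zp p : Set Γ))
    (h1 : ∀ p ∈ n.primeFactors, ∀ Y ≤ R, M ≤ normalizer (Y : Set Γ) → (Nat.card Y).Coprime n →
      Y ⊓ centralizer (Zp p : Set Γ) = ⊥)
    (h2 : ∀ r ∈ n.primeFactors, ∀ p ∈ n.primeFactors, r ≠ p → ∀ B ≤ R, M ≤ normalizer (B : Set Γ) →
      B ≤ centralizer (Zp r : Set Γ) → ¬ p ∣ Nat.card B → Mp p ≤ centralizer (B : Set Γ))
    {Q : Subgroup Γ} (hQR : Q ≤ R) (hMQ : M ≤ normalizer (Q : Set Γ)) {q : ℕ} [hqf : Fact q.Prime]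
    (hq : ¬ q ∣ n) (hQ : IsPGroup q Q) : Q ≤ piCoreOf (primesNotDvd n) R := by
  have hn0 : n ≠ 0 := by
    rintro rfl
    simp at hn
  set W := piCoreOf (primesNotDvd n) R with hW
  have hWn : W.Normal := by
    rw [← normalizer_eq_top_iff, eq_top_iff]
    have h3 := normalizer_le_normalizer_piCoreOf (primesNotDvd n) R
    rwa [normalizer_eq_top] at h3
  have hWR : W ≤ R := piCoreOf_le _ _
  have hWρ : PiG (primesNotDvd n) W := piG_piCoreOf _ _
  set π := QuotientGroup.mk' W with hπ
  have hπs : Function.Surjective π := QuotientGroup.mk'_surjective W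
  have hker : π.ker = W := QuotientGroup.ker_mk' W
  set R' := R.map π with hR'
  have hR'n : R'.Normal := hRn.map _ hπs
  have hR's : Group.IsSolvable R' :=
    Group.isSolvable_of_surjective (f := π.subgroupMap R) (π.subgroupMap_surjective R)
  have hFnil := isNilpotent_fittingOf R'
  set F := fittingOf R' with hF
  have hFR : F ≤ R' := fittingOf_le R'
  have hFn : F.Normal := by
    rw [← normalizer_eq_top_iff, eq_top_iff]
    have h3 := normalizer_le_normalizer_fittingOf R'
    rwa [normalizer_eq_top] at h3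
  -- the preimages of the primary parts of `F`
  have hFr : ∀ r : ℕ, (piCoreOf {r} F).Normal := by
    intro r
    rw [← normalizer_eq_top_iff, eq_top_iff]
    have h3 := normalizer_le_normalizer_piCoreOf {r} F
    rwa [normalizer_eq_top] at h3
  have hcomap : ∀ r : ℕ, (piCoreOf {r} F).comap π ≤ R := by
    intro r
    refine (Subgroup.comap_mono ((piCoreOf_le _ _).trans hFR)).trans ?_
    rw [hR', Subgroup.comap_map_eq, hker]
    exact sup_le le_rfl hWR
  have hcard : ∀ r : ℕ, Nat.card ((piCoreOf {r} F).comap π) = Nat.card (piCoreOf {r} F) * Nat.card W := by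
    intro r
    rw [hπ, H1.Cores.card_comap_mk', mul_comm]
  have hbot : ∀ r : ℕ, r.Prime → ¬ r ∣ n → piCoreOf {r} F = ⊥ := by
    intro r hr hrn
    have h3 : (piCoreOf {r} F).comap π ≤ W := by
      have h5 : (piCoreOf {r} F).comap π |>.Normal := (hFr r).comap π
      refine le_piCoreOf (hcomap r) (by rw [normalizer_eq_top]; exact le_top) ?_
      intro s hs hd
      rw [hcard] at hd
      rcases hs.dvd_mul.1 hd with h | h
      · have h4 : s = r := (piG_piCoreOf {r} F) s hs h
        subst h4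
        exact ⟨hs, hrn⟩
      · exact hWρ s hs h
    rw [eq_bot_iff]
    intro x' hx'
    obtain ⟨x, rfl⟩ := hπs x'
    have h4 : x ∈ W := h3 hx'
    rw [mem_bot, ← MonoidHom.mem_ker, hker]
    exact h4
  have hcen : F ≤ centralizer (Q.map π : Set (Γ ⧸ W)) := by
    rw [← inf_eq_left]
    apply eq_of_forall_isSyl_le inf_le_left
    intro r hr
    refine ⟨_, isSyl_piCoreOf hFnil r, le_inf (piCoreOf_le _ _) ?_⟩
    by_cases hrn : r ∣ n
    swap
    · rw [hbot r hr.out hrn]; exact bot_le
    have hrm : r ∈ n.primeFactors := Nat.mem_primeFactors.2 ⟨hr.out, hrn, hn0⟩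
    obtain ⟨p, hpm, hpr⟩ := Finset.exists_mem_ne (by omega : 1 < n.primeFactors.card) r
    obtain ⟨hpp, hpn, -⟩ := Nat.mem_primeFactors.1 hpm
    have hpf := Fact.mk hpp
    set T := piCoreOf {r} F with hT
    have hTr : IsPGroup r T := piG_singleton_iff.1 (piG_piCoreOf _ _)
    have hTn : T.Normal := hFr r
    have hnT : ∀ X : Subgroup (Γ ⧸ W), X ≤ normalizer (T : Set (Γ ⧸ W)) := fun X => by
      rw [normalizer_eq_top]; exact le_top
    have hrW : ¬ r ∣ Nat.card W := fun h => (hWρ r hr.out h).2 hrn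
    have hpW : ¬ p ∣ Nat.card W := fun h => (hWρ p hpp h).2 hpn
    -- `M_p` centralizes `T`
    have hMT : (Mp p).map π ≤ centralizer (T : Set (Γ ⧸ W)) := by
      have hZr : IsPGroup r (Zp r) := (hMp r hrm).to_le (hZM r hrm)
      have hcopM : (Nat.card ((Mp p).map π)).Coprime r := by
        refine Nat.Coprime.coprime_dvd_left (Subgroup.card_map_dvd _ _) ?_
        obtain ⟨k, hk⟩ := IsPGroup.iff_card.1 (hMp p hpm)
        rw [hk]
        exact Nat.Coprime.pow_left k ((Nat.coprime_primes hpp hr.out).2 hpr)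
      refine pq_lemma r ((Zp r).map π) ((Mp p).map π) (hZr.map _) hcopM ?_ _ T rfl hTr (hnT _) (hnT _) ?_
      · rintro _ ⟨z, hz, rfl⟩
        rw [mem_centralizer_iff]
        rintro _ ⟨m, hm, rfl⟩
        rw [← map_mul, ← map_mul]
        congr 1
        exact (mem_centralizer_iff.1 (hZc r hrm (hMpM p hpm hm)) z hz).symm
      · rintro x' ⟨hx'T, hx'Z⟩
        obtain ⟨x, rfl⟩ := hπs x'
        have hcopZW : (Nat.card (Zp r)).Coprime (Nat.card W) := by
          obtain ⟨k, hk⟩ := IsPGroup.iff_card.1 hZr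
          rw [hk]
          exact Nat.Coprime.pow_left k ((Nat.Prime.coprime_iff_not_dvd hr.out).2 hrW)
        obtain ⟨c, hc, hcx⟩ := exists_fixed_in_coset (Zp r) W (by rw [normalizer_eq_top]; exact le_top) hcopZW
          (Or.inl (isSolvable_of_isPGroup hZr)) x (by
            intro a ha
            rw [← hker, MonoidHom.mem_ker]
            have h3 : π a * π x = π x * π a := mem_centralizer_iff.1 hx'Z _ ⟨a, ha, rfl⟩
            simp only [map_mul, map_inv]
            rw [mul_assoc (π x)⁻¹, h3]; group)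
        have hcx' : π c = π x := by
          rw [← hker, MonoidHom.mem_ker, map_mul, map_inv, inv_mul_eq_one] at hcx
          exact hcx.symm
        set B := T.comap π ⊓ centralizer (Zp r : Set Γ) with hB
        have hBR : B ≤ R := inf_le_left.trans (hcomap r)
        have hTcn : (T.comap π).Normal := hTn.comap π
        have hMB : M ≤ normalizer (B : Set Γ) := by
          apply le_normalizer_inf
          · rw [normalizer_eq_top]; exact le_top
          · exact le_normalizer_centralizer ((hZc r hrm).trans (centralizer_le_normalizer _))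
        have hpB : ¬ p ∣ Nat.card B := by
          intro h
          have h4 := h.trans (Subgroup.card_dvd_of_le (inf_le_left : B ≤ T.comap π))
          rw [hT, hcard] at h4
          rcases hpp.dvd_mul.1 h4 with h5 | h5
          · exact hpr ((piG_piCoreOf {r} F) p hpp h5)
          · exact hpW h5
        have hcB : c ∈ B := by
          refine ⟨?_, hc⟩
          change π c ∈ T
          rw [hcx']; exact hx'T
        have h4 := h2 r hrm p hpm hpr.symm B hBR hMB inf_le_right hpB
        rw [← hcx', mem_centralizer_iff]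
        rintro _ ⟨m, hm, rfl⟩
        rw [← map_mul, ← map_mul]
        congr 1
        exact (mem_centralizer_iff.1 (h4 hm) c hcB).symm
    -- `Q = [Q, M_p]`
    have hcopQ : (Nat.card (Mp p)).Coprime (Nat.card Q) := by
      obtain ⟨k, hk⟩ := IsPGroup.iff_card.1 (hMp p hpm)
      obtain ⟨j, hj⟩ := IsPGroup.iff_card.1 hQ
      rw [hk, hj]
      refine Nat.Coprime.pow_left k (Nat.Coprime.pow_right j ((Nat.coprime_primes hpp hqf.out).2 ?_))
      rintro rfl
      exact hq hpn
    have hQn : (Nat.card Q).Coprime n := by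
      obtain ⟨j, hj⟩ := IsPGroup.iff_card.1 hQ
      rw [hj]
      exact Nat.Coprime.pow_left j ((Nat.Prime.coprime_iff_not_dvd hqf.out).2 hq)
    have h5 := commutator_sup_centralizer (Mp p) Q ((hMpM p hpm).trans hMQ) hcopQ (Or.inl (isSolvable_of_isPGroup (hMp p hpm)))
    have h6 : Q ⊓ centralizer (Mp p : Set Γ) = ⊥ := by
      rw [eq_bot_iff, ← h1 p hpm Q hQR hMQ hQn]
      exact inf_le_inf_left _ (centralizer_le (hZM p hpm))
    rw [h6, sup_bot_eq] at h5
    apply le_centralizer_of_comm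
    rw [← h5, Subgroup.map_commutator]
    have hCn : (centralizer (T : Set (Γ ⧸ W))).Normal := inferInstance
    exact (Subgroup.commutator_mono le_rfl hMT).trans (Subgroup.commutator_le_right _ _)
  have h7 : Q.map π ≤ F := (le_inf (Subgroup.map_mono hQR) (le_centralizer_of_comm hcen)).trans
    (H29.NilCore.inf_centralizer_fittingOf_le hR's)
  have h8 : Q.map π ≤ piCoreOf {q} F := isPGroup_le_piCoreOf_of_isNilpotent hFnil rfl (hQ.map _) h7
  rw [hbot q hqf.out hq, le_bot_iff, Subgroup.map_eq_bot_iff, hker] at h8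
  exact h8

end quot

section main
variable {G : Type*} [Group G] [Finite G]

/-- `Z_p` -/
def zp (F : Subgroup G) (p : ℕ) : Subgroup G := piCoreOf {p} F ⊓ centralizer (F : Set G)

theorem zp_le_center (F : Subgroup G) (p : ℕ) : zp F p ≤ F ⊓ centralizer (F : Set G) :=
  inf_le_inf_right _ (piCoreOf_le _ _)

theorem zp_ne_bot {F : Subgroup G} (hF : Group.IsNilpotent F) {p : ℕ} [hp : Fact p.Prime] (hd : p ∣ Nat.card F) :
    zp F p ≠ ⊥ := by
  have hS := isSyl_piCoreOf hF p
  have hR1 : piCoreOf {p} F ≠ ⊥ := by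
    intro h
    have h1 := hS.not_dvd
    rw [h, relIndex_bot_left] at h1
    exact h1 hd
  have h2 := H29.PGrp.inf_center_ne_bot hS.isPGroup le_rfl Subgroup.le_normalizer hR1
  obtain ⟨z, hz, hz1⟩ := (Subgroup.bot_or_exists_ne_one _).resolve_left h2
  obtain ⟨hzP, hzN⟩ := Subgroup.mem_inf.1 hz
  intro hb
  have h3 : z ∈ zp F p := ⟨hzP, H30.CN.central_of_nilpotent hF hS hzP hzN⟩
  rw [hb, mem_bot] at h3
  exact hz1 h3

theorem isPGroup_zp (F : Subgroup G) (p : ℕ) [hp : Fact p.Prime] : IsPGroup p (zp F p) :=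
  (piG_singleton_iff.1 (piG_piCoreOf _ _)).to_le inf_le_left

theorem le_normalizer_zp {F H : Subgroup G} (h : H ≤ normalizer (F : Set G)) (p : ℕ) :
    H ≤ normalizer (zp F p : Set G) :=
  le_normalizer_inf (h.trans (normalizer_le_normalizer_piCoreOf _ _)) (le_normalizer_centralizer h)

/-- `C_G(Z_p) ≤ H` -/
theorem centralizer_zp_le {H : Subgroup G}
    (hHmax : ∀ L : Subgroup G, IsLocalSubgroup L → H ≤ L → L = H) {p : ℕ} [hp : Fact p.Prime]
    (hd : p ∣ Nat.card (fittingOf H)) : centralizer (zp (fittingOf H) p : Set G) ≤ H := by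
  refine (centralizer_le_normalizer _).trans ?_
  have h1 := hHmax (normalizer (zp (fittingOf H) p : Set G))
    ⟨p, zp (fittingOf H) p, hp.out, isPGroup_zp _ _, zp_ne_bot (isNilpotent_fittingOf H) hd, rfl⟩
    (le_normalizer_zp (le_normalizer_fittingOf H) p)
  rw [h1]

/-- `[Y, M] ≤ Y ∩ F` -/
theorem comm_eq_bot {H Y M : Subgroup G} (hYH : Y ≤ H) (hMF : M ≤ fittingOf H) (hMY : M ≤ normalizer (Y : Set G))
    (h : Y ⊓ fittingOf H = ⊥) : Y ≤ centralizer (M : Set G) := by
  rw [← commutator_eq_bot_iff_le_centralizer, eq_bot_iff, ← h]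
  refine le_inf (commutator_le_left hMY) ?_
  refine (Subgroup.commutator_mono hYH hMF).trans ?_
  exact commutator_le_right (le_normalizer_fittingOf H)

theorem pElem_mem_piCoreOf {F : Subgroup G} (hF : Group.IsNilpotent F) {p : ℕ} [hp : Fact p.Prime] {x : G}
    (hx : x ∈ F) (hxp : IsPGroup p (zpowers x)) : x ∈ piCoreOf {p} F := by
  have h : zpowers x ≤ piCoreOf {p} F :=
    isPGroup_le_piCoreOf_of_isNilpotent hF (Set.mem_singleton p) hxp (zpowers_le.2 hx)
  exact h (mem_zpowers x)

/-- a `π(F)'`-subgroup normalizing `F` and centralizing `M` centralizes `F`. -/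
theorem centralizes_F {F M Y : Subgroup G} (hF : Group.IsNilpotent F) (hMF : M ≤ F)
    (hCM : F ⊓ centralizer (M : Set G) ≤ M) (hYF : Y ≤ normalizer (F : Set G)) (hYM : Y ≤ centralizer (M : Set G))
    (hcop : (Nat.card Y).Coprime (Nat.card F)) : Y ≤ centralizer (F : Set G) := by
  apply le_centralizer_of_comm
  rw [← inf_eq_left]
  apply eq_of_forall_isSyl_le inf_le_left
  intro p hp
  have hS := isSyl_piCoreOf hF p
  refine ⟨_, hS, le_inf hS.le ?_⟩
  by_cases hpF : p ∣ Nat.card F
  swap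
  · have h1 : piCoreOf {p} F = ⊥ := by
      rw [← Subgroup.card_eq_one]
      by_contra hne
      obtain ⟨r, hr, hd⟩ := Nat.exists_prime_and_dvd hne
      have h2 : r = p := (piG_piCoreOf {p} F) r hr hd
      subst h2
      exact hpF (hd.trans (Subgroup.card_dvd_of_le (piCoreOf_le _ _)))
    rw [h1]; exact bot_le
  apply le_centralizer_of_comm
  have hFn : F ≤ normalizer (piCoreOf {p} F : Set G) := le_normalizer_piCoreOf _ _
  have hMp : IsPGroup p (M ⊓ piCoreOf {p} F : Subgroup G) := hS.isPGroup.to_le inf_le_right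
  refine pq_lemma p (M ⊓ piCoreOf {p} F) Y hMp (Nat.Coprime.coprime_dvd_right hpF hcop) ?_ _ (piCoreOf {p} F) rfl
    hS.isPGroup (inf_le_left.trans (hMF.trans hFn)) (hYF.trans (normalizer_le_normalizer_piCoreOf _ _)) ?_
  · exact inf_le_left.trans (le_centralizer_of_comm hYM)
  · intro x hx
    obtain ⟨hx1, hx2⟩ := Subgroup.mem_inf.1 hx
    have h1 : x ∈ M := by
      refine hCM ⟨hS.le hx1, mem_centralizer_iff.2 ?_⟩
      intro m hm
      obtain ⟨u, v, he, ⟨k, hk⟩, hv⟩ := H26.TransferPow.exists_pPart p m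
      have h2 : m ^ u ∈ M ⊓ piCoreOf {p} F :=
        ⟨pow_mem hm u, pElem_mem_piCoreOf hF (pow_mem (hMF hm) u) (IsPGroup.iff_card.2 ⟨k, by rw [Nat.card_zpowers, hk]⟩)⟩
      have h3 : Commute (m ^ u) x := mem_centralizer_iff.1 hx2 _ h2
      have h4 : m ^ v ∈ centralizer (piCoreOf {p} F : Set G) :=
        H73.Nilp.mem_centralizer_of_le hF hS.isPGroup hS.le (pow_mem (hMF hm) v) hv
      have h5 : Commute (m ^ v) x := (mem_centralizer_iff.1 h4 x hx1).symm
      have h7 : Commute (m ^ u * m ^ v) x := h3.mul_left h5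
      rw [← he] at h7
      exact h7
    exact le_centralizer_of_comm hYM h1

theorem inf_le_fitting {H R : Subgroup G} (hR : Group.IsSolvable R)
    (hXR : H ⊓ centralizer (fittingOf H : Set G) ≤ normalizer (R : Set G)) :
    H ⊓ centralizer (fittingOf H : Set G) ⊓ R ≤ fittingOf H := by
  set X := H ⊓ centralizer (fittingOf H : Set G) with hX
  set D := X ⊓ R with hD
  have hDs : Group.IsSolvable D := isSolvable_of_le inf_le_right hR
  have hXD : X ≤ normalizer (D : Set G) := le_normalizer_inf Subgroup.le_normalizer hXR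
  have hHX : H ≤ normalizer (X : Set G) :=
    le_normalizer_inf Subgroup.le_normalizer (le_normalizer_centralizer (le_normalizer_fittingOf H))
  have h1 : fittingOf D ≤ fittingOf X :=
    le_fittingOf ((fittingOf_le D).trans inf_le_left) (hXD.trans (normalizer_le_normalizer_fittingOf D))
      (isNilpotent_fittingOf D)
  have h2 : fittingOf X ≤ fittingOf H :=
    le_fittingOf ((fittingOf_le X).trans inf_le_left) (hHX.trans (normalizer_le_normalizer_fittingOf X))
      (isNilpotent_fittingOf X)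
  have h3 := H29.NilCore.inf_centralizer_fittingOf_le hDs
  refine le_trans ?_ ((h3.trans h1).trans h2)
  refine le_inf le_rfl ?_
  exact (inf_le_left.trans inf_le_right).trans (centralizer_le (h1.trans h2))

theorem inf_eq_bot_of_coprime' {A B : Subgroup G} (h : (Nat.card A).Coprime (Nat.card B)) : A ⊓ B = ⊥ :=
  (Subgroup.disjoint_of_coprime_natCard h).eq_bot

variable {H M R : Subgroup G} 

/-- (A) -/
theorem inf_centralizer_zp (hHmax : ∀ L : Subgroup G, IsLocalSubgroup L → H ≤ L → L = H)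
    (hM : M ≤ fittingOf H) (hCM : fittingOf H ⊓ centralizer (M : Set G) ≤ M) (hR : Group.IsSolvable R)
    (hXR : H ⊓ centralizer (fittingOf H : Set G) ≤ normalizer (R : Set G))
    {p : ℕ} [hp : Fact p.Prime] (hd : p ∣ Nat.card (fittingOf H)) {Y : Subgroup G} (hYR : Y ≤ R)
    (hMY : M ≤ normalizer (Y : Set G)) (hY : (Nat.card Y).Coprime (Nat.card (fittingOf H))) :
    Y ⊓ centralizer (zp (fittingOf H) p : Set G) = ⊥ := by
  have hFnil := isNilpotent_fittingOf H
  set F := fittingOf H with hF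
  set Y' := Y ⊓ centralizer (zp F p : Set G) with hY'
  have h1 : Y' ≤ H := inf_le_right.trans (centralizer_zp_le hHmax hd)
  have hMz : M ≤ centralizer (zp F p : Set G) := hM.trans (le_centralizer_of_comm inf_le_right)
  have h2 : M ≤ normalizer (Y' : Set G) :=
    le_normalizer_inf hMY (le_normalizer_centralizer (hMz.trans (centralizer_le_normalizer _)))
  have h3 : (Nat.card Y').Coprime (Nat.card F) :=
    Nat.Coprime.coprime_dvd_left (Subgroup.card_dvd_of_le inf_le_left) hY
  have h4 : Y' ⊓ F = ⊥ := inf_eq_bot_of_coprime' h3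
  have h5 := comm_eq_bot h1 hM h2 h4
  have h6 := centralizes_F hFnil hM hCM (h1.trans (le_normalizer_fittingOf H)) h5 h3
  have h7 : Y' ≤ F := (le_inf (le_inf h1 h6) (inf_le_left.trans hYR)).trans (inf_le_fitting hR hXR)
  rw [eq_bot_iff, ← h4]
  exact le_inf le_rfl h7

/-- (B) -/
theorem mp_centralizes (hHmax : ∀ L : Subgroup G, IsLocalSubgroup L → H ≤ L → L = H)
    (hM : M ≤ fittingOf H) {r p : ℕ} [hr : Fact r.Prime] [hp : Fact p.Prime]
    (hdr : r ∣ Nat.card (fittingOf H)) {B : Subgroup G} (hMB : M ≤ normalizer (B : Set G))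
    (hBZ : B ≤ centralizer (zp (fittingOf H) r : Set G)) (hpB : ¬ p ∣ Nat.card B) :
    M ⊓ piCoreOf {p} (fittingOf H) ≤ centralizer (B : Set G) := by
  have hFnil := isNilpotent_fittingOf H
  set F := fittingOf H with hF
  have hBH : B ≤ H := hBZ.trans (centralizer_zp_le hHmax hdr)
  have hS := isSyl_piCoreOf hFnil p
  have h1 : B ⊓ piCoreOf {p} F = ⊥ := by
    apply inf_eq_bot_of_coprime'
    obtain ⟨k, hk⟩ := IsPGroup.iff_card.1 hS.isPGroup
    rw [hk]
    exact Nat.Coprime.pow_right k ((Nat.Prime.coprime_iff_not_dvd hp.out).2 hpB).symm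
  rw [← commutator_eq_bot_iff_le_centralizer, eq_bot_iff, ← h1]
  refine le_inf (commutator_le_right (inf_le_left.trans hMB)) ?_
  refine (Subgroup.commutator_mono inf_le_right hBH).trans ?_
  exact commutator_le_left ((le_normalizer_fittingOf H).trans (normalizer_le_normalizer_piCoreOf _ _))

theorem le_normalizer_subgroupOf {A B Γ : Subgroup G} (hB : B ≤ Γ) (h : A ≤ normalizer (B : Set G)) :
    A.subgroupOf Γ ≤ normalizer (B.subgroupOf Γ : Set Γ) := by
  intro e he
  rw [← H1.SZ.conj_smul_eq_iff, H1.SZ.conj_smul_subgroupOf_eq_iff hB hB, H1.SZ.conj_smul_eq_iff]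
  exact h he

/-- (C) -/
theorem invq_le (hHmax : ∀ L : Subgroup G, IsLocalSubgroup L → H ≤ L → L = H)
    (hF2 : 2 ≤ (Nat.card (fittingOf H)).primeFactors.card)
    (hM : M ≤ fittingOf H) (hCM : fittingOf H ⊓ centralizer (M : Set G) ≤ M) (hR : Group.IsSolvable R)
    (hMR : M ≤ normalizer (R : Set G))
    (hXR : H ⊓ centralizer (fittingOf H : Set G) ≤ normalizer (R : Set G))
    {q : ℕ} [hqf : Fact q.Prime] (hq : ¬ q ∣ Nat.card (fittingOf H)) {Q : Subgroup G} (hQR : Q ≤ R)
    (hMQ : M ≤ normalizer (Q : Set G)) (hQ : IsPGroup q Q) :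
    Q ≤ piCoreOf (primesNotDvd (Nat.card (fittingOf H))) R := by
  have hFnil := isNilpotent_fittingOf H
  set F := fittingOf H with hF
  set Γ := normalizer (R : Set G) with hΓ
  have hRΓ : R ≤ Γ := Subgroup.le_normalizer
  have hMF' : ∀ p, piCoreOf {p} F ≤ F := fun p => piCoreOf_le _ _
  have hzM : ∀ p, zp F p ≤ M := fun p => by
    refine le_trans ?_ hCM
    exact (zp_le_center F p).trans (inf_le_inf_left _ (centralizer_le hM))
  have hMz : ∀ p, M ≤ centralizer (zp F p : Set G) := fun p => hM.trans (le_centralizer_of_comm inf_le_right)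
  have hmapR : ∀ Y : Subgroup Γ, Y ≤ R.subgroupOf Γ → Y.map Γ.subtype ≤ R := by
    rintro Y hY _ ⟨y, hy, rfl⟩
    exact hY hy
  have hmapM : (M.subgroupOf Γ).map Γ.subtype = M := by
    rw [Subgroup.subgroupOf_map_subtype, inf_eq_left]; exact hMR
  have hmapN : ∀ Y : Subgroup Γ, M.subgroupOf Γ ≤ normalizer (Y : Set Γ) → M ≤ normalizer (Y.map Γ.subtype : Set G) := by
    intro Y hY
    rw [← hmapM]
    exact (Subgroup.map_mono hY).trans (Subgroup.le_normalizer_map _)
  have key : Q.subgroupOf Γ ≤ piCoreOf (primesNotDvd (Nat.card F)) (R.subgroupOf Γ) := by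
    refine invq_le_core (R := R.subgroupOf Γ) (M := M.subgroupOf Γ) inferInstance ?_ (Nat.card F) hF2
      (fun p => (M ⊓ piCoreOf {p} F).subgroupOf Γ) (fun p => (zp F p).subgroupOf Γ) ?_ ?_ ?_ ?_ ?_ ?_ ?_ ?_ hq ?_
    · have := hR
      exact Group.isSolvable_of_surjective (f := (Subgroup.subgroupOfEquivOfLe hRΓ).symm.toMonoidHom) (Subgroup.subgroupOfEquivOfLe hRΓ).symm.surjective
    · intro p hp
      have := Fact.mk (Nat.prime_of_mem_primeFactors hp)
      exact ((isSyl_piCoreOf hFnil p).isPGroup.to_le inf_le_right).comap_subtype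
    · intro p _
      exact Subgroup.comap_mono inf_le_left
    · intro p _
      exact Subgroup.comap_mono (le_inf (hzM p) inf_le_left)
    · intro p _ m hm
      rw [mem_centralizer_iff]
      intro z hz
      exact Subtype.ext (mem_centralizer_iff.1 (hMz p hm) z hz)
    · intro p hp Y hY hMY hYc
      have := Fact.mk (Nat.prime_of_mem_primeFactors hp)
      have hcardY : Nat.card (Y.map Γ.subtype) = Nat.card Y := Subgroup.card_map_of_injective Γ.subtype_injective
      have h1 := inf_centralizer_zp hHmax hM hCM hR hXR (Nat.dvd_of_mem_primeFactors hp) (hmapR Y hY) (hmapN Y hMY)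
        (by rw [hcardY]; exact hYc)
      rw [eq_bot_iff]
      rintro y ⟨hyY, hyZ⟩
      have h2 : (y : G) ∈ Y.map Γ.subtype ⊓ centralizer (zp F p : Set G) := by
        refine ⟨⟨y, hyY, rfl⟩, ?_⟩
        refine mem_centralizer_iff.2 ?_
        intro z hz
        exact congrArg Subtype.val (mem_centralizer_iff.1 hyZ ⟨z, hMR (hzM p hz)⟩ hz)
      rw [h1, mem_bot] at h2
      rw [mem_bot]
      exact Subtype.ext h2
    · intro r hr p hp hrp B hB hMB hBZ hpB
      have := Fact.mk (Nat.prime_of_mem_primeFactors hp)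
      have := Fact.mk (Nat.prime_of_mem_primeFactors hr)
      have hcardB : Nat.card (B.map Γ.subtype) = Nat.card B := Subgroup.card_map_of_injective Γ.subtype_injective
      have h1 := mp_centralizes (p := p) hHmax hM (Nat.dvd_of_mem_primeFactors hr) (hmapN B hMB) (by
        rintro _ ⟨b, hb, rfl⟩
        rw [mem_centralizer_iff]
        intro z hz
        exact congrArg Subtype.val (mem_centralizer_iff.1 (hBZ hb) ⟨z, hMR (hzM r hz)⟩ hz)) (by rw [hcardB]; exact hpB)
      intro m hm
      rw [mem_centralizer_iff]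
      intro b hb
      exact Subtype.ext (mem_centralizer_iff.1 (h1 hm) b ⟨b, hb, rfl⟩)
    · exact Subgroup.comap_mono hQR
    · exact le_normalizer_subgroupOf (hQR.trans hRΓ) hMQ
    · exact hQ.comap_subtype
  intro x hx
  have hxΓ : x ∈ Γ := hRΓ (hQR hx)
  have h1 : (⟨x, hxΓ⟩ : Γ) ∈ piCoreOf (primesNotDvd (Nat.card F)) (R.subgroupOf Γ) := key hx
  have h2 : (piCoreOf (primesNotDvd (Nat.card F)) (R.subgroupOf Γ)).map Γ.subtype ≤ piCoreOf (primesNotDvd (Nat.card F)) R := by
    refine le_piCoreOf (hmapR _ (piCoreOf_le _ _)) ?_ ?_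
    · have h3 := Subgroup.map_mono (f := Γ.subtype) (le_normalizer_piCoreOf (primesNotDvd (Nat.card F)) (R.subgroupOf Γ))
      rw [Subgroup.subgroupOf_map_subtype, inf_eq_left.2 hRΓ] at h3
      exact h3.trans (Subgroup.le_normalizer_map _)
    · exact piG_map_subtype.2 (piG_piCoreOf _ _)
  exact h2 ⟨_, h1, rfl⟩

/-- S1481 -/
theorem main (hHmax : ∀ L : Subgroup G, IsLocalSubgroup L → H ≤ L → L = H)
    (hF2 : 2 ≤ (Nat.card (fittingOf H)).primeFactors.card)
    (hM : M ≤ fittingOf H) (hCM : fittingOf H ⊓ centralizer (M : Set G) ≤ M) (hR : Group.IsSolvable R)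
    (hMR : M ≤ normalizer (R : Set G))
    (hXR : H ⊓ centralizer (fittingOf H : Set G) ≤ normalizer (R : Set G))
    (q : ℕ) [hqf : Fact q.Prime] (hq : ¬ q ∣ Nat.card (fittingOf H)) :
    ∃! Q : Subgroup G, Q ∈ maxInvSubgroups R M {q} ∧
      (∀ Q' : Subgroup G, Q' ∈ maxInvSubgroups R M {q} →
        Q' ≤ piCoreOf (primesNotDvd (Nat.card (fittingOf H))) R ∧
        ¬ q ∣ Q'.relIndex (piCoreOf (primesNotDvd (Nat.card (fittingOf H))) R)) := by
  have hFnil := isNilpotent_fittingOf H
  set F := fittingOf H with hF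
  set W := piCoreOf (primesNotDvd (Nat.card F)) R with hW
  have hWR : W ≤ R := piCoreOf_le _ _
  have hMW : M ≤ normalizer (W : Set G) := hMR.trans (normalizer_le_normalizer_piCoreOf _ _)
  have hWF : (Nat.card W).Coprime (Nat.card F) := by
    refine Nat.coprime_of_dvd fun r hr h1 h2 => ?_
    exact ((piG_piCoreOf (primesNotDvd (Nat.card F)) R) r hr h1).2 h2
  have hcop : (Nat.card M).Coprime (Nat.card W) :=
    Nat.Coprime.coprime_dvd_left (Subgroup.card_dvd_of_le hM) hWF.symm
  have hMnil : Group.IsNilpotent M := H29.NilCore.isNilpotent_of_le hM hFnil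
  have hMs : Group.IsSolvable M := inferInstance
  obtain ⟨p, hp⟩ : (Nat.card F).primeFactors.Nonempty := by
    rw [← Finset.card_pos]; omega
  have hpf := Fact.mk (Nat.prime_of_mem_primeFactors hp)
  have hzM : zp F p ≤ M := by
    refine le_trans ?_ hCM
    exact (zp_le_center F p).trans (inf_le_inf_left _ (centralizer_le hM))
  have hCW : W ⊓ centralizer (M : Set G) = ⊥ := by
    rw [eq_bot_iff, ← inf_centralizer_zp hHmax hM hCM hR hXR (Nat.dvd_of_mem_primeFactors hp) hWR hMW hWF]
    exact inf_le_inf_left _ (centralizer_le hzM)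
  obtain ⟨S, hS, hMS⟩ := exists_invariant_sylow M W hMW hcop (Or.inl hMs) q
  have hinv : ∀ Q ∈ invSubgroups R M {q}, Q ≤ S := by
    rintro Q ⟨hQR, hQq, hMQ⟩
    have hQ : IsPGroup q Q := piG_singleton_iff.1 hQq
    have h1 := invq_le hHmax hF2 hM hCM hR hMR hXR hq hQR hMQ hQ
    obtain ⟨T, hT, hQT, hMT⟩ := exists_invariant_sylow_ge M W hMW hcop (Or.inl hMs) q Q h1 hQ hMQ
    obtain ⟨c, hc, hcT⟩ := conj_invariant_sylow M W hMW hcop (Or.inl hMs) q T S hT hS hMT hMS
    rw [hCW, mem_bot] at hc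
    subst hc
    rw [map_one, one_smul] at hcT
    rw [← hcT]; exact hQT
  have hSinv : S ∈ invSubgroups R M {q} :=
    ⟨hS.1.trans hWR, piG_singleton_iff.2 hS.isPGroup, hMS⟩
  have hSmax : S ∈ maxInvSubgroups R M {q} := ⟨hSinv, fun T hT hle => le_antisymm (hinv T hT) hle⟩
  have huniq : ∀ Q ∈ maxInvSubgroups R M {q}, Q = S := fun Q hQ => (hQ.2 S hSinv (hinv Q hQ.1)).symm
  refine ⟨S, ⟨hSmax, ?_⟩, fun Q hQ => huniq Q hQ.1⟩
  intro Q hQ
  rw [huniq Q hQ]
  refine ⟨hS.1, ?_⟩
  have h1 : IsSyl q S W := isSyl_of_card hS.1 hS.2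
  exact h1.not_dvd

end main

end H30.Bend
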