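import Cfsg.Agent.Lib.H30.G8T
import Cfsg.Agent.Lib.H18.TW5

set_option autoImplicit false

/-!
T-GW8: `H20.G8.TWp` holds (helper18's theorem (TW)).
-/

namespace H30.G8T

open Cfsg Subgroup H28.Cj H28.RelSyl H28.RelHall H28.RelCore H4.GW H39.G8 H20.G8 H3.GW8

universe u

variable {G : Type u} [Group G] [Finite G] {z s s' : G}

/-- **(TW)** in the setting of readme 77 -/
theorem tw_of_st {S : Sylow 2 G} {m : ℕ} (h : St z s s' S m) : TWp z s s' := by
  refine twp ?_ h
  haveI := h.loc.simple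
  intro S n hn r s hr hs hro hso hrel hgen z hz U hU hC hN f f1 hmul hinv h1 h2
  exact H18.TW.tw S n hn r s hr hs hro hso hrel hgen z hz U hU hC hN f f1 hmul hinv h1 h2

end H30.G8T
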