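import Mathlib
import Cfsg.Agent.Lib.H21.SylowTools
import Cfsg.Agent.Lib.H4.Burnside

set_option autoImplicit false

namespace H30.SmallSimple
open H21.SylowTools

universe u
variable {G : Type u} [Group G] [Finite G] [IsSimpleGroup G]

theorem comm_of_solvable (h : Group.IsSolvable G) : IsMulCommutative G := by
  exact ⟨⟨IsSimpleGroup.comm_iff_isSolvable.2 h⟩⟩

theorem not_pq (hG : ¬ IsMulCommutative G) (p q : ℕ) (hp : p.Prime) (hq : q.Prime) (a b : ℕ)
    (h : Nat.card G = p ^ a * q ^ b) : False :=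
  hG (comm_of_solvable (H4.Burnside.isSolvable_of_card_eq p q hp hq _ G rfl ⟨a, b, h⟩))

theorem of_twelve (hG : ¬ IsMulCommutative G) (r : ℕ) (hr : r.Prime) (h : Nat.card G = 12 * r) :
    r = 5 := by
  by_contra h5
  have h2 : r ≠ 2 := by
    rintro rfl
    exact not_pq hG 2 3 Nat.prime_two Nat.prime_three 3 1 (by rw [h]; norm_num)
  have h3 : r ≠ 3 := by
    rintro rfl
    exact not_pq hG 2 3 Nat.prime_two Nat.prime_three 2 2 (by rw [h]; norm_num)
  have h7 : 7 ≤ r := by
    have := hr.two_le
    by_contra hlt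
    push Not at hlt
    interval_cases r
    · exact h2 rfl
    · exact h3 rfl
    · revert hr; norm_num
    · exact h5 rfl
    · revert hr; norm_num
  have : Fact r.Prime := ⟨hr⟩
  have hdvd : r ∣ Nat.card G := ⟨12, by rw [h]; ring⟩
  have hn1 : Nat.card (Sylow r G) ≠ 1 := card_sylow_ne_one hG hdvd
  have hn2 : Nat.card (Sylow r G) ∣ 12 := card_sylow_dvd_of_card (a := 1) (by rw [h]; ring)
  have hn3 : Nat.card (Sylow r G) ≡ 1 [MOD r] := card_sylow_modEq_one r G
  have hle : Nat.card (Sylow r G) ≤ 12 := Nat.le_of_dvd (by norm_num) hn2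
  have hpos : 0 < Nat.card (Sylow r G) := Nat.card_pos
  have h12 : Nat.card (Sylow r G) = 12 ∧ r = 11 := by
    have hd := (Nat.modEq_iff_dvd' hpos).1 hn3.symm
    obtain ⟨c, hc⟩ := hd
    have hc1 : c = 1 := by
      have : c ≠ 0 := by
        rintro rfl
        omega
      have h11 : r * c ≤ 11 := by omega
      by_contra hc2
      have : 2 ≤ c := by omega
      nlinarith
    subst hc1
    rw [mul_one] at hc
    have hk : Nat.card (Sylow r G) = r + 1 := by omega
    rw [hk] at hn2 hle
    have hr11 : r ≤ 11 := by omega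
    interval_cases r
    · exfalso; revert hn2; norm_num
    · exfalso; revert hn2; norm_num
    · exfalso; revert hn2; norm_num
    · exfalso; revert hn2; norm_num
    · exact ⟨hk, rfl⟩
  obtain ⟨ha, hb⟩ := h12
  subst hb
  exact gcd_ne_one_of_simple hG (p := 11) (k := 12) (l := 1) (by rw [h]) (by norm_num) ha
    (by norm_num)

end H30.SmallSimple
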